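import Cfsg.Agent.BS.Basic
import Cfsg.Agent.FT.Main

/-! Bender's theorem: the interface of the induction (what is known about proper subgroups of a
minimal counterexample) and the hypothesis `Cex` under which step A fails. -/

set_option autoImplicit false
set_option linter.unusedSectionVars false

namespace Cfsg.Agent.BS

open Subgroup FT MulAction
open scoped commutatorElement

universe u v

/-- the points fixed by an involution of `N` -/
def Gam {G : Type u} [Group G] (Ω : Type v) [MulAction G Ω] (N : Subgroup G) : Set Ω :=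
  {a | ∃ z ∈ N, orderOf z = 2 ∧ z • a = a}

/-- `N` has involutions with different fixed points -/
def TwoPt {G : Type u} [Group G] (Ω : Type v) [MulAction G Ω] (N : Subgroup G) : Prop :=
  ∃ a ∈ Gam Ω N, ∃ b ∈ Gam Ω N, a ≠ b

/-- `N` contains a four-group -/
def Rank2 {G : Type u} [Group G] (N : Subgroup G) : Prop :=
  ∃ u ∈ N, ∃ v ∈ N, orderOf u = 2 ∧ orderOf v = 2 ∧ u ≠ v ∧ u * v = v * u

/-- the part of the conclusion of Bender's theorem that is used for proper subgroups -/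
structure Str {G : Type u} [Group G] (Ω : Type v) [MulAction G Ω] (N : Subgroup G) : Prop where
  comm : ∀ u ∈ N, ∀ v ∈ N, orderOf u = 2 → orderOf v = 2 → ∀ a : Ω, u • a = a → v • a = a →
    ⁅u, v⁆ ∈ core {2}ᶜ N
  trans : ∀ a ∈ Gam Ω N, ∀ b ∈ Gam Ω N, ∀ c ∈ Gam Ω N, b ≠ a → c ≠ a →
    ∃ g ∈ N, g • a = a ∧ g • b = c

/-- the standing hypotheses for a minimal counterexample -/
structure Min (G : Type u) [Group G] (Ω : Type v) [MulAction G Ω] : Prop where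
  full : ∀ a : Ω, ∃ z : G, orderOf z = 2 ∧ z • a = a
  rank : Rank2 (⊤ : Subgroup G)
  odd : ∀ A : Subgroup G, Odd ♯A → A ≠ ⊥ → 𝐍(A) ≠ ⊤
  ind : ∀ N : Subgroup G, N ≠ ⊤ → TwoPt Ω N → Rank2 N → Str Ω N

/-- step A: the involutions of a point stabilizer `M` commute modulo `O(M)` -/
def StepA (G : Type u) [Group G] (Ω : Type v) [MulAction G Ω] : Prop :=
  ∀ (a : Ω) (u v : G), orderOf u = 2 → orderOf v = 2 → u • a = a → v • a = a →
    ⁅u, v⁆ ∈ core {2}ᶜ (stabilizer G a)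

/-- a minimal counterexample in which no proper subgroup moving `a` contains all the involutions
fixing `a` -/
structure Cex (G : Type u) [Group G] (Ω : Type v) [MulAction G Ω] : Prop extends Min G Ω where
  notA : ∀ N : Subgroup G, N ≠ ⊤ → ∀ a : Ω, (∀ z : G, orderOf z = 2 → z • a = a → z ∈ N) →
    N ≤ stabilizer G a

variable {G : Type u} [Group G] {Ω : Type v} [MulAction G Ω] {N A B D : Subgroup G}
  {a b c d : Ω} {t u v g x : G}

theorem odd_solvable [Finite G] (h : Odd ♯A) : Group.IsSolvable A := odd_order_solvable h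
theorem odd_core (N : Subgroup G) [Finite G] : Odd ♯(core {2}ᶜ N) := odd_iff_piG.2 (core_piG _ _)
theorem le_oddCore [Finite G] (h : A ⊴ N) (ho : Odd ♯A) : A ≤ core {2}ᶜ N :=
  le_core h (odd_iff_piG.1 ho)
theorem mem_Gam (ht : t ∈ N) (h2 : orderOf t = 2) (h : t • a = a) : a ∈ Gam Ω N := ⟨t, ht, h2, h⟩
theorem Gam_mono (h : A ≤ N) (ha : a ∈ Gam Ω A) : a ∈ Gam Ω N :=
  let ⟨z, h1, h2⟩ := ha; ⟨z, h h1, h2⟩
theorem smul_mem_Gam (hg : g ∈ 𝐍(N)) (ha : a ∈ Gam Ω N) : g • a ∈ Gam Ω N :=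
  let ⟨_, h1, h2, h3⟩ := ha
  ⟨_, conj_mem_of_mem_normalizer hg h1, ord2_conj h2 g, conj_fix h3 g⟩
theorem smul_mem_Gam' (hg : g ∈ N) (ha : a ∈ Gam Ω N) : g • a ∈ Gam Ω N :=
  smul_mem_Gam (le_normalizer hg) ha
theorem twoPt_of_not_le (ha : a ∈ Gam Ω N) (h : ¬ N ≤ stabilizer G a) : TwoPt Ω N := by
  obtain ⟨g, hg, h1⟩ := SetLike.not_le_iff_exists.1 h
  exact ⟨_, smul_mem_Gam' hg ha, a, ha, h1⟩
theorem Rank2.mono (h : Rank2 A) (h1 : A ≤ N) : Rank2 N :=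
  let ⟨u, hu, v, hv, h2⟩ := h; ⟨u, h1 hu, v, h1 hv, h2⟩

variable [hG : OneFix G Ω] [Finite G]

theorem twoPt_of_ne (hu : u ∈ N) (hv : v ∈ N) (hu2 : orderOf u = 2) (hv2 : orderOf v = 2)
    (h1 : u • a = a) (h2 : v • a ≠ a) : TwoPt Ω N :=
  twoPt_of_not_le (mem_Gam hu hu2 h1) fun h => h2 (h hv)
theorem exists_swap_Gam (ha : a ∈ Gam Ω N) (hb : b ∈ Gam Ω N) (h : a ≠ b) :
    ∃ w ∈ N, orderOf w = 2 ∧ w • a = b ∧ w • b = a := by
  obtain ⟨u, hu, hu2, h1⟩ := ha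
  obtain ⟨v, hv, hv2, h2⟩ := hb
  obtain ⟨w, hw, e1, e2, h3⟩ := exists_swap_points hu2 hv2 h1 h2 h
  exact ⟨w, h3 N hu hv, hw, e1, e2⟩
theorem exists_smul_Gam (ha : a ∈ Gam Ω N) (hb : b ∈ Gam Ω N) : ∃ g ∈ N, g • a = b := by
  by_cases h : a = b
  · exact ⟨1, one_mem _, by rw [one_smul, h]⟩
  · exact let ⟨w, h1, _, h2, _⟩ := exists_swap_Gam ha hb h; ⟨w, h1, h2⟩
theorem TwoPt.exists_ne (h : TwoPt Ω N) (a : Ω) : ∃ b ∈ Gam Ω N, b ≠ a := by
  obtain ⟨b, hb, c, hc, h1⟩ := h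
  by_cases h2 : b = a
  · exact ⟨c, hc, fun e => h1 (h2.trans e.symm)⟩
  · exact ⟨b, hb, h2⟩
theorem TwoPt.not_le (h : TwoPt Ω N) (a : Ω) : ¬ N ≤ stabilizer G a := fun h1 =>
  let ⟨_, ⟨_, hz, h2, h3⟩, h4⟩ := h.exists_ne a; h4 (fix_eq h2 h3 (h1 hz))
/-- `N_{a b}` is transitive on the involutions of `N_a` -/
theorem exists_conj_fix_two (ha : a ∈ Gam Ω N) (hb : b ∈ Gam Ω N) (h : b ≠ a) (hu : u ∈ N)
    (hv : v ∈ N) (hu2 : orderOf u = 2) (hv2 : orderOf v = 2) (h1 : u • a = a) (h2 : v • a = a) :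
    ∃ k ∈ N, k • a = a ∧ k • b = b ∧ k * u * k⁻¹ = v := by
  obtain ⟨w, hw, hw2, e1, -⟩ := exists_swap_Gam ha hb h.symm
  obtain ⟨k, e2, e3, -, e4, e5⟩ := exists_inverted_conj hu2 hv2 hw2 h1 h2 (e1 ▸ h)
  exact ⟨k, e5 N hu hv hw, e2, e1 ▸ e3, e4⟩
/-- the involutions of a subgroup with two points are conjugate -/
theorem TwoPt.conj (h : TwoPt Ω N) (hu : u ∈ N) (hv : v ∈ N) (hu2 : orderOf u = 2)
    (hv2 : orderOf v = 2) : ∃ g ∈ N, g * u * g⁻¹ = v := by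
  obtain ⟨a, ha⟩ := exists_fix Ω hu2
  by_cases h1 : v • a = a
  · obtain ⟨b, hb, h2⟩ := h.exists_ne a
    obtain ⟨k, h3, -, -, h4⟩ := exists_conj_fix_two (mem_Gam hu hu2 ha) hb h2 hu hv hu2 hv2 ha h1
    exact ⟨k, h3, h4⟩
  · obtain ⟨w, -, h2, h3⟩ := exists_swap hu2 hv2 ha h1
    exact ⟨w, h3 N hu hv, h2⟩
/-- a normal subgroup of even order contains all involutions -/
theorem TwoPt.mem_of_nrm (h : TwoPt Ω N) (hA : A ⊴ N) (ho : ¬ Odd ♯A) (hv : v ∈ N)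
    (hv2 : orderOf v = 2) : v ∈ A := by
  obtain ⟨u, hu, hu2⟩ := exists_inv_of_not_odd ho
  obtain ⟨g, hg, rfl⟩ := h.conj (hA.le hu) hv hu2 hv2
  exact hA.conj_mem hg hu
/-- every involution lies in a four-group -/
theorem TwoPt.exists_comm (h : TwoPt Ω N) (h2 : Rank2 N) (ht : t ∈ N) (ht2 : orderOf t = 2) :
    ∃ w ∈ N, orderOf w = 2 ∧ w ≠ t ∧ w * t = t * w := by
  obtain ⟨u, hu, v, hv, hu2, hv2, h3, h4⟩ := h2
  obtain ⟨g, hg, rfl⟩ := h.conj hu ht hu2 ht2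
  refine ⟨g * v * g⁻¹, mul_mem (mul_mem hg hv) (inv_mem hg), ord2_conj hv2 g,
    fun e => h3 (by simpa using e.symm), ?_⟩
  rw [conj_mul, conj_mul, h4]
omit hG in
theorem four_group (ht : orderOf t = 2) (hu : orderOf u = 2) (h : u ≠ t) (hc : u * t = t * u) :
    ∃ V : Subgroup G, t ∈ V ∧ u ∈ V ∧ IsPGroup 2 V ∧ IsMulCommutative V ∧ ¬ IsCyclic V ∧
      (∀ H : Subgroup G, t ∈ H → u ∈ H → V ≤ H) ∧ ∀ x ∈ V, x * x = 1 := by
  have h1 : zpowers u ≤ 𝐂(zpowers t) := by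
    rw [cent_zpowers, zpowers_le]; exact mem_cent1_iff.2 hc
  have h2 : IsMulCommutative ↥(zpowers t ⊔ zpowers u) := by
    rw [comm_iff_le_cent, cent_sup]
    exact le_inf (sup_le (comm_iff_le_cent.1 inferInstance) h1)
      (sup_le (cent_symm h1) (comm_iff_le_cent.1 inferInstance))
  have h3 : ∀ s : G, orderOf s = 2 → IsPGroup 2 (zpowers s) := fun s hs =>
    isPGroup_of_card_prime (by rw [Nat.card_zpowers, hs])
  refine ⟨zpowers t ⊔ zpowers u, mem_sup_left (mem_zpowers t), mem_sup_right (mem_zpowers u),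
    isPGroup_sup' (h3 t ht) (h3 u hu) (h1.trans (cent_le_norm _)), h2, fun hcy => h ?_,
    fun H a b => sup_le (zpowers_le.2 a) (zpowers_le.2 b), fun x hx => ?_⟩
  · exact congrArg Subtype.val (H3.involution_unique_of_isCyclic
      (a := (⟨u, mem_sup_right (mem_zpowers u)⟩ : ↥(zpowers t ⊔ zpowers u)))
      (b := ⟨t, mem_sup_left (mem_zpowers t)⟩) (by rw [← hu, orderOf_mk]) (by rw [← ht, orderOf_mk]))
  · rw [zpowers_eq_closure, zpowers_eq_closure, ← Subgroup.closure_union] at hx h2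
    induction hx using closure_induction with
    | mem y hy => rcases hy with rfl | rfl; exacts [sq1 ht, sq1 hu]
    | one => exact mul_one 1
    | mul y z hy hz a b =>
      rw [mul_assoc, ← mul_assoc z, mem_cent_iff.1 (comm_iff_le_cent.1 h2 hy) z hz, mul_assoc, b,
        mul_one, a]
    | inv y _ a => rw [← mul_inv_rev, a, inv_one]
/-- `O(N)` fixes the points of `N` -/
theorem oddCore_le_stab (h : TwoPt Ω N) (h2 : Rank2 N) (ha : a ∈ Gam Ω N) :
    core {2}ᶜ N ≤ stabilizer G a := by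
  obtain ⟨t, ht, ht2, h3⟩ := ha
  obtain ⟨w, hw, hw2, h4, h5⟩ := h.exists_comm h2 ht ht2
  obtain ⟨V, a1, a2, a3, a4, a5, a6, a7⟩ := four_group ht2 hw2 h4 h5
  exact H2.le_of_forall_centralizer_le a4 a5 ((a6 N ht hw).trans (core_nrm _ _).norm)
    (coprime_of_isPGroup a3 (core_piG _ _)) fun x hx h6 => inf_le_right.trans
      (cent1_le_stab (ord2 (a7 x hx) h6) (two_group_le_stab a3 ht2 a1 h3 hx))
/-- either step A holds, or no proper subgroup moving `a` contains the involutions fixing `a` -/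
theorem Min.cex (h : Min G Ω) (hA : ¬ StepA G Ω) : Cex G Ω := by
  refine ⟨h, fun N hN a ha => ?_⟩
  by_contra h1
  obtain ⟨z, hz2, hz⟩ := h.full a
  have h2 := twoPt_of_not_le (mem_Gam (ha z hz2 hz) hz2 hz) h1
  have hT : TwoPt Ω (⊤ : Subgroup G) := twoPt_of_not_le (mem_Gam (mem_top z) hz2 hz)
    fun e => h1 (le_top.trans e)
  obtain ⟨w, -, hw2, h3, h4⟩ := hT.exists_comm h.rank (mem_top z) hz2
  have h5 := h.ind N hN h2 ⟨w, ha w hw2 (fix_of_comm hz2 hz h4), z, ha z hz2 hz, hw2, hz2, h3, h4⟩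
  let Z : Subgroup G := closure {z : G | orderOf z = 2 ∧ z • a = a}
  have hZN : Z ≤ N := (closure_le _).2 fun z hz => ha z hz.1 hz.2
  have hZ : Z ⊴ stabilizer G a := ⟨(closure_le _).2 fun z hz => hz.2, fun g hg =>
    mem_normalizer_of_cj_le (by
      rw [H1.cj_def, MonoidHom.map_closure, closure_le]
      rintro _ ⟨y, hy, rfl⟩
      exact subset_closure ⟨ord2_conj hy.1 g, by
        have := conj_fix hy.2 g
        rwa [mem_stabilizer_iff.1 hg] at this⟩)⟩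
  have hn := hZN.trans (core_nrm {2}ᶜ N).norm
  have h6 : ⁅Z, Z⁆ ≤ core {2}ᶜ N := by
    rw [← bar_le_cent_iff hn hn, bar_le_iff hn, closure_le]
    intro y hy
    refine mem_unbar.2 ⟨hn (subset_closure hy), le_cent1_iff.1 ?_⟩
    rw [bar_le_iff hn, closure_le]
    intro y' hy'
    refine mem_unbar.2 ⟨hn (subset_closure hy'), mem_cent1_iff.2 ?_⟩
    rw [← commutatorElement_eq_one_iff_mul_comm,
      ← coset_commutator (hn (subset_closure hy')) (hn (subset_closure hy))]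
    exact coset_eq_one (h5.comm _ (ha _ hy'.1 hy'.2) _ (ha _ hy.1 hy.2) hy'.1 hy.1 a hy'.2 hy.2)
  have h7 := le_oddCore (hZ.commutator hZ) (odd_of_le h6 (odd_core N))
  refine hA fun b u v hu hv hub hvb => ?_
  obtain ⟨z', hz2', hz'⟩ := h.full b
  obtain ⟨g, -, rfl⟩ := exists_smul_Gam (mem_Gam (mem_top z) hz2 hz) (mem_Gam (mem_top z') hz2' hz')
  have h8 : ∀ s : G, orderOf s = 2 → s • g • a = g • a → g⁻¹ * s * g ∈ Z := fun s hs e =>
    subset_closure ⟨by simpa using ord2_conj hs g⁻¹, by simpa using conj_fix e g⁻¹⟩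
  rw [← cj_stab, ← cj_core, mem_cj]
  have := h7 (commutator_mem_commutator (h8 u hu hub) (h8 v hv hvb))
  simpa [commutatorElement_def, mul_assoc] using this
/-- the form of `notA` that is used: a subgroup of odd order normalized by `G_{c d}`, by an
involution fixing `c` and by an element moving `c` is trivial -/
theorem Cex.eq_bot (h : Cex G Ω) (ho : Odd ♯A) (hd : d ≠ c)
    (h1 : stabilizer G c ⊓ stabilizer G d ≤ 𝐍(A)) (hv : orderOf v = 2) (h2 : v • c = c)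
    (h3 : v ∈ 𝐍(A)) (h4 : g ∈ 𝐍(A)) (h5 : g • c ≠ c) : A = ⊥ := by
  by_contra h0
  refine h5 (h.notA _ (h.odd A ho h0) c (fun z hz e => ?_) h4)
  obtain ⟨z', hz2', hz'⟩ := h.full d
  obtain ⟨k, -, a1, a2, rfl⟩ := exists_conj_fix_two (mem_Gam (mem_top v) hv h2)
    (mem_Gam (mem_top z') hz2' hz') hd (mem_top v) (mem_top z) hv hz h2 e
  exact mul_mem (mul_mem (h1 ⟨a1, a2⟩) h3) (inv_mem (h1 ⟨a1, a2⟩))

end Cfsg.Agent.BS
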